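import Cfsg.Agent.H215.Off

/-!
# The minimal failure: `D(Jt(S)) = 1`
-/

set_option autoImplicit false
set_option linter.unusedSectionVars false
set_option linter.unusedVariables false

open Cfsg

namespace Cfsg.Agent.H215.Baum

open Cfsg.Agent.H215.Fun Cfsg.Agent.H215.Act Cfsg.Agent.H215.Setup Cfsg.Agent.H215.Setup.Min
open Cfsg.Agent.H263.FF.Basic Cfsg.Agent.H215.RankOne Cfsg.Agent.H215.Off

variable {G : Type*} [Group G] [Finite G] {p : ℕ} [hp : Fact p.Prime]
variable {S : Sylow p G} {M : Subgroup G} (m : Min p S M)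

theorem card_sup_normal (A N : Subgroup G) [N.Normal] :
    Nat.card (A ⊔ N : Subgroup G) * Nat.card (A ⊓ N : Subgroup G) = Nat.card A * Nat.card N :=
  Cfsg.Agent.H264.CD.card_sup_mul_card_inf_of_mul (Subgroup.mul_normal A N)

include m

theorem map_mem {g : G} (hg : g ∉ M) : pp p G g ∉ M.map (pp p G) := by
  intro h
  apply hg
  have h1 : g ∈ (M.map (pp p G)).comap (pp p G) := h
  rwa [comap_M m] at h1

/-- (c1) -/
theorem c1 {s : G} (hs : s ∈ (S : Subgroup G)) (hsQ : s ∉ pCore p G) {v : G} (hv : v ∈ V p G) (h : s * v = v * s) :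
    v ∈ V p G ⊓ Subgroup.centralizer ((S : Subgroup G) : Set G) := by
  have hs1 : pp p G s ≠ 1 := by
    intro e
    apply hsQ
    apply m.CS_inf
    refine Subgroup.mem_inf.2 ⟨hs, ?_⟩
    rw [← ker_pp]; exact e
  have h1 := (r1 m).cent (pp p G s) ⟨s, hs, rfl⟩ hs1 (Md.mk _ hInv hv) ((Md.smul_eq_iff s _).2 h)
  rw [fx_map, fx_iff] at h1
  exact h1

omit m in
theorem SC_inf (m : Min p S M) : (S : Subgroup G) ⊓ Subgroup.centralizer (V p G : Set G) = pCore p G :=
  le_antisymm m.CS_inf (le_inf QS QC)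

/-- (c2) -/
theorem c2 : Nat.card (S : Subgroup G) * Nat.card (V p G ⊓ Subgroup.centralizer ((S : Subgroup G) : Set G) : Subgroup G) =
    Nat.card (V p G) * Nat.card (pCore p G) := by
  have h1 := (r1 m).card
  rw [fx_map, card_fx, card_W] at h1
  have h2 := card_map_mul (pp p G) (S : Subgroup G)
  rw [ker_pp, SC_inf m] at h2
  rw [← h1, ← h2]; ring

/-- (c3) -/
theorem c3 {g : G} (hg : g ∉ M) {v : G} (hv : v ∈ V p G) :
    ∃ a ∈ V p G ⊓ Subgroup.centralizer ((S : Subgroup G) : Set G),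
      ∃ b ∈ V p G ⊓ Subgroup.centralizer (cj g (S : Subgroup G) : Set G), v = a * b := by
  have h1 := (r1 m).sup (pp p G g) (map_mem m hg)
  have h2 : cj (pp p G g) ((S : Subgroup G).map (pp p G)) = (cj g (S : Subgroup G)).map (pp p G) := by
    ext x
    rw [mem_cj]
    constructor
    · rintro ⟨s, hs, e⟩
      refine ⟨g * s * g⁻¹, mem_cj_of hs, ?_⟩
      rw [map_mul, map_mul, map_inv, e]; group
    · rintro ⟨y, hy, rfl⟩
      rw [SetLike.mem_coe, mem_cj] at hy
      exact ⟨_, hy, by rw [map_mul, map_mul, map_inv]⟩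
  rw [h2, fx_map, fx_map] at h1
  have h3 : Md.mk (MonoidHom.id G) hInv hv ∈ fx (W p G) (S : Subgroup G) ⊔ fx (W p G) (cj g (S : Subgroup G)) := by
    rw [h1]; trivial
  obtain ⟨a, ha, b, hb, e⟩ := mem_sup h3
  refine ⟨a.val, fx_iff.1 ha, b.val, fx_iff.1 hb, ?_⟩
  rw [← Md.val_add, e]; rfl

/-- (c4) -/
theorem c4 {g₁ : G} (hg₁ : g₁ ∉ M) {x : G} (hx : x ∉ M) : ∃ s ∈ (S : Subgroup G), ∃ k ∈ M, x = s * g₁ * k := by
  obtain ⟨_, ⟨s, hs, rfl⟩, _, ⟨k, hk, rfl⟩, e⟩ := (r1 m).cov _ (map_mem m hg₁) _ (map_mem m hx)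
  refine ⟨s, hs, (s * g₁)⁻¹ * x, ?_, by group⟩
  have h1 : k⁻¹ * ((s * g₁)⁻¹ * x) ∈ (pp p G).ker := by
    rw [MonoidHom.mem_ker, map_mul, map_mul, e, map_inv, map_inv, map_mul]; group
  rw [ker_pp] at h1
  have h2 := mul_mem hk (m.CM h1)
  rwa [mul_inv_cancel_left] at h2

/-- (c5) -/
theorem c5 {g₁ : G} (hg₁ : g₁ ∉ M) {s : G} (hs : s ∈ (S : Subgroup G)) (h : g₁⁻¹ * s * g₁ ∈ M) : s ∈ pCore p G := by
  have h1 := (r1 m).free _ (map_mem m hg₁) _ ⟨s, hs, rfl⟩ (by
    rw [← map_inv, ← map_mul, ← map_mul]; exact ⟨_, h, rfl⟩)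
  apply m.CS_inf
  refine Subgroup.mem_inf.2 ⟨hs, ?_⟩
  rw [← ker_pp]; exact h1

section A

variable {A : Subgroup G} (hA : LA (S : Subgroup G) A) (hAQ : ¬ A ≤ pCore p G)
include hA hAQ

theorem VA_iff {v : G} (hv : v ∈ V p G) : v ∈ A ↔ v ∈ V p G ⊓ Subgroup.centralizer ((S : Subgroup G) : Set G) := by
  constructor
  · intro h
    obtain ⟨a, ha, haQ⟩ := Set.not_subset.1 hAQ
    exact c1 m (hA.1 ha) haQ hv (hA.2.1 a ha v h)
  · intro h
    apply hA.mem (QS (V_le hv))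
    intro a ha
    exact Subgroup.mem_centralizer_iff.1 (Subgroup.mem_inf.1 h).2 a (hA.1 ha)

theorem VA_cent : V p G ⊓ Subgroup.centralizer (A : Set G) = V p G ⊓ Subgroup.centralizer ((S : Subgroup G) : Set G) := by
  apply le_antisymm
  · rintro v ⟨hv, hv'⟩
    obtain ⟨a, ha, haQ⟩ := Set.not_subset.1 hAQ
    exact c1 m (hA.1 ha) haQ hv (Subgroup.mem_centralizer_iff.1 hv' a ha)
  · exact inf_le_inf_left _ (Subgroup.centralizer_le hA.1)

/-- `AQ = S`, and the cardinalities -/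
theorem AQ : A ⊔ pCore p G = S ∧ Nat.card A * Nat.card (pCore p G) = Nat.card (S : Subgroup G) * Nat.card (A ⊓ pCore p G : Subgroup G) ∧
    Nat.card A * Nat.card (V p G ⊓ Subgroup.centralizer ((S : Subgroup G) : Set G) : Subgroup G) =
      Nat.card (A ⊓ pCore p G : Subgroup G) * Nat.card (V p G) := by
  have _ := Qn (p := p) (G := G)
  have h1 := LA_off (Y := A ⊓ pCore p G) hA (V_comm (p := p)) (V_le.trans QS) inf_le_left
  have h2 : V p G ⊓ Subgroup.centralizer ((A ⊓ pCore p G : Subgroup G) : Set G) = V p G := by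
    rw [inf_eq_left]
    intro v hv
    rw [Subgroup.mem_centralizer_iff]
    rintro x ⟨-, hx⟩
    exact V_Q hx hv
  rw [h2, VA_cent m hA hAQ] at h1
  have h3 := card_sup_normal A (pCore p G)
  have h4 := c2 m
  have h5 : A ⊔ pCore p G ≤ S := sup_le hA.1 QS
  set cA := Nat.card A
  set cQ := Nat.card (pCore p G)
  set cS := Nat.card (S : Subgroup G)
  set c0 := Nat.card (A ⊓ pCore p G : Subgroup G)
  set cV := Nat.card (V p G)
  set cVS := Nat.card (V p G ⊓ Subgroup.centralizer ((S : Subgroup G) : Set G) : Subgroup G)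
  set cAQ := Nat.card (A ⊔ pCore p G : Subgroup G)
  have p0 : 0 < c0 := Nat.card_pos
  have p1 : 0 < cVS := Nat.card_pos
  have p2 : 0 < cQ := Nat.card_pos
  have h6 : cS ≤ cAQ := by
    have h7 : cS * (cVS * c0) ≤ cAQ * (cVS * c0) := by
      calc cS * (cVS * c0) = (cS * cVS) * c0 := by ring
        _ = (cV * cQ) * c0 := by rw [h4]
        _ = (c0 * cV) * cQ := by ring
        _ ≤ (cA * cVS) * cQ := Nat.mul_le_mul_right _ h1
        _ = (cA * cQ) * cVS := by ring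
        _ = (cAQ * c0) * cVS := by rw [h3]
        _ = _ := by ring
    exact Nat.le_of_mul_le_mul_right h7 (Nat.mul_pos p1 p0)
  have h7 : A ⊔ pCore p G = S := Subgroup.eq_of_le_of_card_ge h5 h6
  have h8 : cAQ = cS := by
    show Nat.card (A ⊔ pCore p G : Subgroup G) = _
    rw [h7]
  rw [h8] at h3
  refine ⟨h7, h3.symm, ?_⟩
  have h9 : (cA * cVS) * cQ = (c0 * cV) * cQ := by
    calc (cA * cVS) * cQ = (cA * cQ) * cVS := by ring
      _ = (cS * c0) * cVS := by rw [h3]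
      _ = (cS * cVS) * c0 := by ring
      _ = (cV * cQ) * c0 := by rw [h4]
      _ = _ := by ring
  exact Nat.eq_of_mul_eq_mul_right p2 h9

/-- `(A ∩ Q) V` -/
def Af (p : ℕ) [Fact p.Prime] (A : Subgroup G) : Subgroup G := (A ⊓ pCore p G) ⊔ V p G

omit m hA hAQ in
theorem mem_Af {x : G} : x ∈ Af p A ↔ ∃ a ∈ A ⊓ pCore p G, ∃ v ∈ V p G, a * v = x := by
  have _ := V_normal (p := p) (G := G)
  exact Subgroup.mem_sup_of_normal_right

omit m hA hAQ in
theorem Af_le : Af p A ≤ pCore p G := sup_le inf_le_right V_le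

theorem Af_LA : LA (S : Subgroup G) (Af p A) := by
  have _ := V_normal (p := p) (G := G)
  obtain ⟨-, -, h1⟩ := AQ m hA hAQ
  have h2 := card_sup_normal (A ⊓ pCore p G) (V p G)
  have h3 : A ⊓ pCore p G ⊓ V p G = V p G ⊓ Subgroup.centralizer ((S : Subgroup G) : Set G) := by
    ext v
    constructor
    · rintro ⟨⟨hv, -⟩, hv'⟩
      exact (VA_iff m hA hAQ hv').1 hv
    · rintro ⟨hv, hv'⟩
      exact ⟨⟨(VA_iff m hA hAQ hv).2 ⟨hv, hv'⟩, V_le hv⟩, hv⟩
  rw [h3] at h2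
  have h4 : Nat.card (Af p A) = Nat.card A :=
    Nat.eq_of_mul_eq_mul_right (Nat.card_pos) (h2.trans h1.symm)
  refine ⟨Af_le.trans QS, ?_, fun B hB hBa => by rw [h4]; exact hA.2.2 B hB hBa⟩
  intro x hx y hy
  obtain ⟨a, ha, v, hv, rfl⟩ := mem_Af.1 hx
  obtain ⟨b, hb, w, hw, rfl⟩ := mem_Af.1 hy
  have e1 : a * b = b * a := hA.2.1 a ha.1 b hb.1
  have e2 : b * v = v * b := V_Q hb.2 hv
  have e3 : a * w = w * a := V_Q ha.2 hw
  have e4 : v * w = w * v := V_comm v hv w hw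
  calc a * v * (b * w) = a * (v * b) * w := by group
    _ = a * (b * v) * w := by rw [e2]
    _ = (a * b) * (v * w) := by group
    _ = (b * a) * (w * v) := by rw [e1, e4]
    _ = b * (a * w) * v := by group
    _ = b * (w * a) * v := by rw [e3]
    _ = b * w * (a * v) := by group

theorem Af_conj (g : G) : LA (S : Subgroup G) (cj g (Af p A)) := by
  have h1 := Af_LA m hA hAQ
  refine ⟨?_, ?_, fun B hB hBa => by rw [card_cj]; exact h1.2.2 B hB hBa⟩
  · intro x hx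
    rw [mem_cj] at hx
    apply QS
    have h2 := (Qn (p := p) (G := G)).conj_mem _ (Af_le hx) g
    rwa [show g * (g⁻¹ * x * g) * g⁻¹ = x by group] at h2
  · intro x hx y hy
    rw [mem_cj] at hx hy
    have h2 := h1.2.1 _ hx _ hy
    calc x * y = g * ((g⁻¹ * x * g) * (g⁻¹ * y * g)) * g⁻¹ := by group
      _ = g * ((g⁻¹ * y * g) * (g⁻¹ * x * g)) * g⁻¹ := by rw [h2]
      _ = _ := by group

theorem exists_conj_notMem {g : G} (hg : g ∉ M) : ∃ a ∈ A, g * a * g⁻¹ ∉ M := by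
  obtain ⟨a, ha, haQ⟩ := Set.not_subset.1 hAQ
  refine ⟨a, ha, fun h => haQ ?_⟩
  apply c5 m (g₁ := g⁻¹) (fun h => hg ((inv_mem_iff).1 h)) (hA.1 ha)
  rwa [inv_inv]

/-- `⟨S, A^g⟩ = G` -/
theorem eq_top_of_le {H : Subgroup G} (hSH : (S : Subgroup G) ≤ H) {g : G} (hg : g ∉ M) (h : cj g A ≤ H) : H = ⊤ := by
  by_contra hne
  obtain ⟨a, ha, haM⟩ := exists_conj_notMem m hA hAQ hg
  exact haM (m.max H hSH hne (h (mem_cj_of ha)))

theorem ZJV_normal : (Zs (J (S : Subgroup G)) ⊔ V p G).Normal := by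
  have hVn := V_normal (p := p) (G := G)
  have hV : ∀ x : G, cj x (V p G) = V p G := fun x => by
    rw [cj_eq_iff_mem_normalizer, Subgroup.normalizer_eq_top_iff.2 hVn]; trivial
  obtain ⟨g, hg⟩ := m.exists_notMem
  rw [← Subgroup.normalizer_eq_top_iff]
  apply eq_top_of_le m hA hAQ _ hg
  · intro x hx
    rw [mem_cj] at hx
    rw [← cj_eq_iff_mem_normalizer]
    apply cj_eq_of_le
    rw [cj_sup, hV]
    refine sup_le ?_ le_sup_right
    rw [cj_le_iff]
    intro z hz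
    have h1 := ZJ_le_LA (Af_conj m hA hAQ g) hz
    rw [mem_cj] at h1
    obtain ⟨a, ha, v, hv, e⟩ := mem_Af.1 h1
    have e1 : (g⁻¹ * x * g) * a = a * (g⁻¹ * x * g) := hA.2.1 _ hx _ ha.1
    have hw : g * v * g⁻¹ ∈ V p G := hVn.conj_mem v hv g
    have hw' : x * (g * v * g⁻¹) * x⁻¹ ∈ V p G := hVn.conj_mem _ hw x
    have e2 : z = g * a * g⁻¹ * (g * v * g⁻¹) := by
      calc z = g * (g⁻¹ * z * g) * g⁻¹ := by group
        _ = g * (a * v) * g⁻¹ := by rw [e]
        _ = _ := by group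
    have e4 : x * (g * a * g⁻¹) = (g * a * g⁻¹) * x := by
      calc x * (g * a * g⁻¹) = g * ((g⁻¹ * x * g) * a) * g⁻¹ := by group
        _ = g * (a * (g⁻¹ * x * g)) * g⁻¹ := by rw [e1]
        _ = _ := by group
    have e3 : x * z * x⁻¹ = z * ((g * v * g⁻¹)⁻¹ * (x * (g * v * g⁻¹) * x⁻¹)) := by
      rw [e2]
      calc x * (g * a * g⁻¹ * (g * v * g⁻¹)) * x⁻¹ = (x * (g * a * g⁻¹)) * (g * v * g⁻¹) * x⁻¹ := by group
        _ = ((g * a * g⁻¹) * x) * (g * v * g⁻¹) * x⁻¹ := by rw [e4]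
        _ = _ := by group
    rw [e3]
    exact mul_mem (Subgroup.mem_sup_left hz) (Subgroup.mem_sup_right (mul_mem (inv_mem hw) hw'))
  · intro s hs
    have h1 : s ∈ Subgroup.normalizer (Zs (J (S : Subgroup G)) : Set G) :=
      normalizer_le_Zs (normalizer_le_J (Subgroup.le_normalizer hs))
    rw [← cj_eq_iff_mem_normalizer, cj_sup, hV, cj_eq_iff_mem_normalizer.2 h1]

/-- `Jt(S) ∩ Q` is normal -/
theorem JtQ_normal : (Jt (S : Subgroup G) ⊓ pCore p G).Normal := by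
  have h1 := ZJV_normal m hA hAQ
  have h2 := Qn (p := p) (G := G)
  have h3 : Jt (S : Subgroup G) ⊓ pCore p G =
      pCore p G ⊓ Subgroup.centralizer ((Zs (J (S : Subgroup G)) ⊔ V p G : Subgroup G) : Set G) := by
    rw [Cfsg.Agent.H264.CD.centralizer_sup]
    apply le_antisymm
    · rintro x ⟨hx, hxQ⟩
      exact ⟨hxQ, hx.2, QC hxQ⟩
    · rintro x ⟨hxQ, hx, -⟩
      exact ⟨⟨QS hxQ, hx⟩, hxQ⟩
  rw [h3]
  infer_instance

theorem V_le_J : V p G ≤ J (S : Subgroup G) := le_sup_right.trans (le_J (Af_LA m hA hAQ))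

/-- a centrally large subgroup of `Jt(S)` inside `Q` -/
theorem exists_CL_Q : ∃ R, CL (Jt (S : Subgroup G)) R ∧ R ≤ pCore p G := by
  have hVn := V_normal (p := p) (G := G)
  have hQn := Qn (p := p) (G := G)
  obtain ⟨R, hR⟩ := exists_CL (Jt (S : Subgroup G))
  by_cases hRQ : R ≤ pCore p G
  · exact ⟨R, hR, hRQ⟩
  have hRS : R ≤ S := hR.1.trans Jt_le
  have hVJt : V p G ≤ Jt (S : Subgroup G) := (V_le_J m hA hAQ).trans J_le_Jt
  set VS := V p G ⊓ Subgroup.centralizer ((S : Subgroup G) : Set G) with hVS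
  obtain ⟨r, hr, hrQ⟩ := Set.not_subset.1 hRQ
  -- `Z(R) ∩ V = C_V(S)`
  have hZV : Zs R ⊓ V p G = VS := by
    ext v
    constructor
    · rintro ⟨hv, hv'⟩
      exact c1 m (hRS hr) hrQ hv' ((mem_Zs.1 hv).2 r hr)
    · rintro ⟨hv, hv'⟩
      refine ⟨?_, hv⟩
      have hc : ∀ y ∈ R, y * v = v * y := fun y hy => Subgroup.mem_centralizer_iff.1 hv' y (hRS hy)
      refine mem_Zs.2 ?_
      refine ⟨hR.cent (Subgroup.mem_inf.2 ⟨hVJt hv, ?_⟩), hc⟩
      rw [Subgroup.mem_centralizer_iff]; exact hc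
  -- the new subgroup
  set Rf := (R ⊓ pCore p G) ⊔ V p G with hRf
  set Zf := (Zs R ⊓ pCore p G) ⊔ V p G with hZf
  have hRfJ : Rf ≤ Jt (S : Subgroup G) := sup_le (inf_le_left.trans hR.1) hVJt
  have hZfR : Zf ≤ Zs Rf := by
    have hVc : ∀ y ∈ Rf, ∀ v ∈ V p G, y * v = v * y := fun y hy v hv =>
      V_Q ((sup_le inf_le_right V_le : Rf ≤ pCore p G) hy) hv
    apply sup_le
    · rintro z ⟨hz', hzQ⟩
      have hz := mem_Zs.1 hz'
      rw [mem_Zs]
      refine ⟨Subgroup.mem_sup_left ⟨hz.1, hzQ⟩, ?_⟩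
      intro y hy
      obtain ⟨a, ha, v, hv, rfl⟩ := Subgroup.mem_sup_of_normal_right.1 hy
      have e1 := hz.2 a ha.1
      have e2 : z * v = v * z := V_Q hzQ hv
      calc a * v * z = a * (z * v) := by rw [e2]; group
        _ = (a * z) * v := by group
        _ = z * (a * v) := by rw [e1]; group
    · intro v hv
      rw [mem_Zs]
      exact ⟨Subgroup.mem_sup_right hv, fun y hy => hVc y hy v hv⟩
  have k1 := card_sup_normal (R ⊓ pCore p G) (V p G)
  have k2 := card_sup_normal (Zs R ⊓ pCore p G) (V p G)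
  have e1 : Zs R ⊓ pCore p G ⊓ V p G = VS := by
    rw [inf_assoc, inf_eq_right.2 (V_le (p := p) (G := G)), hZV]
  rw [e1] at k2
  have e2 : R ⊓ pCore p G ⊓ V p G = R ⊓ V p G := by
    rw [inf_assoc, inf_eq_right.2 (V_le (p := p) (G := G))]
  rw [e2] at k1
  have k3 := c2 m
  have k4 := card_sup_normal R (pCore p G)
  have k5 := card_sup_normal (Zs R) (pCore p G)
  have k6 : Nat.card (R ⊔ pCore p G : Subgroup G) ≤ Nat.card (S : Subgroup G) := Subgroup.card_le_of_le (sup_le hRS QS)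
  have k7 : Nat.card (Zs R ⊔ pCore p G : Subgroup G) ≤ Nat.card (S : Subgroup G) :=
    Subgroup.card_le_of_le (sup_le (Zs_le.trans hRS) QS)
  have hgoal : fv R ≤ fv Rf := by
    have h9 : Nat.card R * Nat.card (Zs R) ≤ Nat.card Rf * Nat.card Zf := by
      have q1 : 0 < Nat.card VS := Nat.card_pos
      have q2 : 0 < Nat.card (pCore p G) := Nat.card_pos
      -- `|R| |Q| ≤ |S| |R ∩ Q|`, `|S| |VS| = |V| |Q|`
      have l1 : Nat.card R * Nat.card VS ≤ Nat.card (R ⊓ pCore p G : Subgroup G) * Nat.card (V p G) := by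
        refine Nat.le_of_mul_le_mul_right ?_ q2
        calc Nat.card R * Nat.card VS * Nat.card (pCore p G) = (Nat.card R * Nat.card (pCore p G)) * Nat.card VS := by ring
          _ = (Nat.card (R ⊔ pCore p G : Subgroup G) * Nat.card (R ⊓ pCore p G : Subgroup G)) * Nat.card VS := by rw [k4]
          _ ≤ (Nat.card (S : Subgroup G) * Nat.card (R ⊓ pCore p G : Subgroup G)) * Nat.card VS :=
            Nat.mul_le_mul_right _ (Nat.mul_le_mul_right _ k6)
          _ = (Nat.card (S : Subgroup G) * Nat.card VS) * Nat.card (R ⊓ pCore p G : Subgroup G) := by ring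
          _ = (Nat.card (V p G) * Nat.card (pCore p G)) * Nat.card (R ⊓ pCore p G : Subgroup G) := by rw [k3]
          _ = _ := by ring
      have l2 : Nat.card (Zs R) * Nat.card VS ≤ Nat.card (Zs R ⊓ pCore p G : Subgroup G) * Nat.card (V p G) := by
        refine Nat.le_of_mul_le_mul_right ?_ q2
        calc Nat.card (Zs R) * Nat.card VS * Nat.card (pCore p G)
            = (Nat.card (Zs R) * Nat.card (pCore p G)) * Nat.card VS := by ring
          _ = (Nat.card (Zs R ⊔ pCore p G : Subgroup G) * Nat.card (Zs R ⊓ pCore p G : Subgroup G)) * Nat.card VS := by rw [k5]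
          _ ≤ (Nat.card (S : Subgroup G) * Nat.card (Zs R ⊓ pCore p G : Subgroup G)) * Nat.card VS :=
            Nat.mul_le_mul_right _ (Nat.mul_le_mul_right _ k7)
          _ = (Nat.card (S : Subgroup G) * Nat.card VS) * Nat.card (Zs R ⊓ pCore p G : Subgroup G) := by ring
          _ = (Nat.card (V p G) * Nat.card (pCore p G)) * Nat.card (Zs R ⊓ pCore p G : Subgroup G) := by rw [k3]
          _ = _ := by ring
      by_cases hZQ : Zs R ≤ pCore p G
      · -- `|Zf| |VS| = |Z(R)| |V|`, `|Rf| ≥ |R ∩ Q|`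
        have e3 : Zs R ⊓ pCore p G = Zs R := inf_eq_left.2 hZQ
        rw [e3] at k2
        have l3 : Nat.card (R ⊓ pCore p G : Subgroup G) ≤ Nat.card Rf := Subgroup.card_le_of_le le_sup_left
        refine Nat.le_of_mul_le_mul_right ?_ q1
        calc Nat.card R * Nat.card (Zs R) * Nat.card VS = (Nat.card R * Nat.card VS) * Nat.card (Zs R) := by ring
          _ ≤ (Nat.card (R ⊓ pCore p G : Subgroup G) * Nat.card (V p G)) * Nat.card (Zs R) := Nat.mul_le_mul_right _ l1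
          _ = Nat.card (R ⊓ pCore p G : Subgroup G) * (Nat.card (Zs R) * Nat.card (V p G)) := by ring
          _ ≤ Nat.card Rf * (Nat.card (Zs R) * Nat.card (V p G)) := Nat.mul_le_mul_right _ l3
          _ = Nat.card Rf * (Nat.card Zf * Nat.card VS) := by rw [hZf, e3, k2]
          _ = _ := by ring
      · obtain ⟨z, hz, hzQ⟩ := Set.not_subset.1 hZQ
        have e3 : R ⊓ V p G ≤ VS := by
          rintro v ⟨hv, hv'⟩
          exact c1 m (hRS (Zs_le hz)) hzQ hv' ((mem_Zs.1 hz).2 v hv).symm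
        have l3 := Subgroup.card_le_of_le e3
        have l4 : Nat.card R ≤ Nat.card Rf := by
          refine Nat.le_of_mul_le_mul_right ?_ q1
          calc Nat.card R * Nat.card VS ≤ Nat.card (R ⊓ pCore p G : Subgroup G) * Nat.card (V p G) := l1
            _ = Nat.card Rf * Nat.card (R ⊓ V p G : Subgroup G) := k1.symm
            _ ≤ Nat.card Rf * Nat.card VS := Nat.mul_le_mul_left _ l3
        have l5 : Nat.card (Zs R) ≤ Nat.card Zf := by
          refine Nat.le_of_mul_le_mul_right ?_ q1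
          calc Nat.card (Zs R) * Nat.card VS ≤ Nat.card (Zs R ⊓ pCore p G : Subgroup G) * Nat.card (V p G) := l2
            _ = Nat.card Zf * Nat.card VS := k2.symm
        exact Nat.mul_le_mul l4 l5
    rw [fv, fv]
    exact h9.trans (Nat.mul_le_mul_left _ (Subgroup.card_le_of_le hZfR))
  exact ⟨Rf, CL_of_fv hR hRfJ hgoal, sup_le inf_le_right V_le⟩

/-- **`D(Jt(S)) = 1`** -/
theorem D_eq_bot : D (Jt (S : Subgroup G)) = ⊥ := by
  by_contra hD
  obtain ⟨R, hR, hRQ⟩ := exists_CL_Q m hA hAQ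
  obtain ⟨R', hR'R, hR'⟩ := exists_MCL_le hR
  have h1 : MCL (Jt (S : Subgroup G) ⊓ pCore p G) R' := by
    refine ⟨⟨le_inf hR'.1.1 (hR'R.trans hRQ), fun B hB => hR'.1.2 B (hB.trans inf_le_left)⟩, ?_⟩
    intro B hB hBc
    apply hR'.2 B hB
    exact CL_of_fv hR'.1 (hB.trans hR'.1.1) (hBc.2 R' (le_inf hR'.1.1 (hR'R.trans hRQ)))
  have h2 : D (Jt (S : Subgroup G)) = D (Jt (S : Subgroup G) ⊓ pCore p G) := by rw [D_eq hR', D_eq h1]
  apply m.Kn
  rw [K, if_neg hD, h2]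
  exact normal_of (JtQ_normal m hA hAQ) normalizer_le_D

end A

end Cfsg.Agent.H215.Baum
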