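import Cfsg.Agent.H215.Baum

/-!
# The minimal failure: `C_Q(A ∩ A^g) = (A ∩ Q)(A^g ∩ Q)`
-/

set_option autoImplicit false
set_option linter.unusedSectionVars false
set_option linter.unusedVariables false

open Cfsg

namespace Cfsg.Agent.H215.Count

open Cfsg.Agent.H215.Fun Cfsg.Agent.H215.Act Cfsg.Agent.H215.Setup Cfsg.Agent.H215.Setup.Min
open Cfsg.Agent.H263.FF.Basic Cfsg.Agent.H215.RankOne Cfsg.Agent.H215.Off Cfsg.Agent.H215.Baum
open scoped Pointwise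

variable {G : Type*} [Group G] [Finite G] {p : ℕ} [hp : Fact p.Prime]
variable {S : Sylow p G} {M : Subgroup G} (m : Min p S M)
variable {A : Subgroup G} (hA : LA (S : Subgroup G) A) (hAQ : ¬ A ≤ pCore p G) {g : G} (hg : g ∉ M)
include m hA hAQ hg

theorem I_le : A ⊓ cj g A ≤ pCore p G := by
  intro x hxx
  have hx := (Subgroup.mem_inf.1 hxx).1
  have hx' := mem_cj.1 (Subgroup.mem_inf.1 hxx).2
  exact c5 m hg (hA.1 hx) (m.SM (hA.1 hx'))

theorem split {v : G} (hv : v ∈ V p G) : ∃ a ∈ A ⊓ pCore p G, ∃ b ∈ cj g A ⊓ pCore p G, a ∈ V p G ∧ b ∈ V p G ∧ v = a * b := by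
  obtain ⟨a, ha, b, hb, e⟩ := c3 m hg hv
  refine ⟨a, Subgroup.mem_inf.2 ⟨(VA_iff m hA hAQ ha.1).2 ha, V_le ha.1⟩, b, Subgroup.mem_inf.2 ⟨?_, V_le hb.1⟩, ha.1, hb.1, e⟩
  rw [mem_cj]
  have h1 : g⁻¹ * b * g ∈ V p G := by
    have := V_normal.conj_mem b hb.1 g⁻¹
    rwa [inv_inv] at this
  rw [VA_iff m hA hAQ h1]
  refine Subgroup.mem_inf.2 ⟨h1, ?_⟩
  rw [Subgroup.mem_centralizer_iff]
  intro s hs
  have h2 := Subgroup.mem_centralizer_iff.1 hb.2 _ (mem_cj_of (g := g) hs)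
  calc s * (g⁻¹ * b * g) = g⁻¹ * ((g * s * g⁻¹) * b) * g := by group
    _ = g⁻¹ * (b * (g * s * g⁻¹)) * g := by rw [h2]
    _ = _ := by group

omit m hA hAQ hg in
theorem mem_cj_Af {x : G} (hx : x ∈ cj g (Af p A)) : ∃ b ∈ cj g A ⊓ pCore p G, ∃ w ∈ V p G, x = b * w := by
  rw [mem_cj] at hx
  obtain ⟨b, hb, w, hw, e⟩ := mem_Af.1 hx
  refine ⟨g * b * g⁻¹, Subgroup.mem_inf.2 ⟨mem_cj_of (Subgroup.mem_inf.1 hb).1, Qn.conj_mem b (Subgroup.mem_inf.1 hb).2 g⟩, g * w * g⁻¹, V_normal.conj_mem w hw g, ?_⟩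
  calc x = g * (g⁻¹ * x * g) * g⁻¹ := by group
    _ = g * (b * w) * g⁻¹ := by rw [e]
    _ = _ := by group

theorem inf_le : Af p A ⊓ cj g (Af p A) ≤ (A ⊓ cj g A) ⊔ V p G := by
  intro x hxx
  have hx := (Subgroup.mem_inf.1 hxx).1
  have hx' := (Subgroup.mem_inf.1 hxx).2
  obtain ⟨a, ha, v, hv, rfl⟩ := mem_Af.1 hx
  obtain ⟨b, hb, w, hw, e⟩ := mem_cj_Af hx'
  obtain ⟨l, hl, k, hk, hlV, hkV, e2⟩ := split m hA hAQ hg (mul_mem hw (inv_mem hv))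
  -- `a l⁻¹ = b k`
  have e3 : a * l⁻¹ = b * k := by
    have h1 : a = b * (w * v⁻¹) := by rw [← mul_assoc, ← e]; group
    rw [h1, e2, V_comm l hlV k hkV]; group
  have h1 : a * l⁻¹ ∈ A ⊓ cj g A := Subgroup.mem_inf.2
    ⟨A.mul_mem (Subgroup.mem_inf.1 ha).1 (A.inv_mem (Subgroup.mem_inf.1 hl).1),
      by rw [e3]; exact (cj g A).mul_mem (Subgroup.mem_inf.1 hb).1 (Subgroup.mem_inf.1 hk).1⟩
  have e4 : a * v = a * l⁻¹ * (l * v) := by group
  rw [e4]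
  exact mul_mem (Subgroup.mem_sup_left h1) (Subgroup.mem_sup_right (mul_mem hlV hv))

theorem Q1_le : pCore p G ⊓ Subgroup.centralizer ((A ⊓ cj g A : Subgroup G) : Set G) ≤ Jt (S : Subgroup G) := by
  have hVn := V_normal (p := p) (G := G)
  rintro x ⟨hxQ, hx⟩
  rw [mem_Jt]
  refine ⟨QS hxQ, fun z hz => ?_⟩
  have h1 : z ∈ (A ⊓ cj g A) ⊔ V p G := inf_le m hA hAQ hg ⟨ZJ_le_LA (Af_LA m hA hAQ) hz, ZJ_le_LA (Af_conj m hA hAQ g) hz⟩
  obtain ⟨i, hi, v, hv, rfl⟩ := Subgroup.mem_sup_of_normal_right.1 h1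
  have e1 : i * x = x * i := Subgroup.mem_centralizer_iff.1 hx i hi
  have e2 : x * v = v * x := V_Q hxQ hv
  calc i * v * x = i * (x * v) := by rw [e2]; group
    _ = (i * x) * v := by group
    _ = x * (i * v) := by rw [e1]; group

/-- **`C_Q(A ∩ A^g) = (A ∩ Q)(A^g ∩ Q)`** -/
theorem mem_Q1 {u : G} (hu : u ∈ pCore p G) (hu' : ∀ i ∈ A ⊓ cj g A, i * u = u * i) :
    ∃ a ∈ A ⊓ pCore p G, ∃ b ∈ cj g A ⊓ pCore p G, u = a * b := by
  have hVn := V_normal (p := p) (G := G)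
  set I := A ⊓ cj g A with hI
  set Q₁ := pCore p G ⊓ Subgroup.centralizer (I : Set G) with hQ₁
  have hIQ : I ≤ pCore p G := I_le m hA hAQ hg
  have hD := D_eq_bot m hA hAQ
  have h1 : fv Q₁ ≤ Nat.card A * Nat.card A :=
    fv_le_of_D hD (fun B hB hBa => hA.2.2 B (hB.trans Jt_le) hBa) (Q1_le m hA hAQ hg)
  have hZ : I ⊔ V p G ≤ Zs Q₁ := by
    apply sup_le
    · intro i hi
      rw [mem_Zs]
      refine ⟨Subgroup.mem_inf.2 ⟨hIQ hi, ?_⟩, ?_⟩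
      · rw [Subgroup.mem_centralizer_iff]
        exact fun j hj => hA.2.1 j hj.1 i hi.1
      · exact fun y hy => (Subgroup.mem_centralizer_iff.1 (Subgroup.mem_inf.1 hy).2 i hi).symm
    · intro v hv
      rw [mem_Zs]
      refine ⟨Subgroup.mem_inf.2 ⟨V_le hv, ?_⟩, ?_⟩
      · rw [Subgroup.mem_centralizer_iff]
        exact fun j hj => V_Q (hIQ hj) hv
      · exact fun y hy => V_Q (Subgroup.mem_inf.1 hy).1 hv
  have h2 := Cfsg.Agent.H264.CD.card_mul_card (Af p A) (cj g (Af p A))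
  rw [card_cj, (Af_LA m hA hAQ).card_eq hA] at h2
  have hAfI : ∀ x ∈ Af p A, ∀ i ∈ I, i * x = x * i := by
    intro x hx i hi
    obtain ⟨a, ha, v, hv, rfl⟩ := mem_Af.1 hx
    have e1 : i * a = a * i := hA.2.1 i hi.1 a ha.1
    have e2 : i * v = v * i := V_Q (hIQ hi) hv
    calc i * (a * v) = (i * a) * v := by group
      _ = a * (i * v) := by rw [e1]; group
      _ = a * v * i := by rw [e2]; group
  have hAfI' : ∀ x ∈ cj g (Af p A), ∀ i ∈ I, i * x = x * i := by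
    intro x hx i hi
    obtain ⟨b, hb, v, hv, rfl⟩ := mem_cj_Af hx
    have hi2 := mem_cj.1 (Subgroup.mem_inf.1 hi).2
    have hb1 := mem_cj.1 (Subgroup.mem_inf.1 hb).1
    have e0 := hA.2.1 _ hi2 _ hb1
    have e1 : i * b = b * i := by
      calc i * b = g * ((g⁻¹ * i * g) * (g⁻¹ * b * g)) * g⁻¹ := by group
        _ = g * ((g⁻¹ * b * g) * (g⁻¹ * i * g)) * g⁻¹ := by rw [e0]
        _ = _ := by group
    have e2 : i * v = v * i := V_Q (hIQ hi) hv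
    calc i * (b * v) = (i * b) * v := by group
      _ = b * (i * v) := by rw [e1]; group
      _ = b * v * i := by rw [e2]; group
  have hsub : (Af p A : Set G) * (cj g (Af p A) : Set G) ⊆ (Q₁ : Set G) := by
    rintro _ ⟨x, hx, y, hy, rfl⟩
    have hxQ₁ : x ∈ Q₁ := Subgroup.mem_inf.2 ⟨Af_le hx, by
      rw [Subgroup.mem_centralizer_iff]; exact hAfI x hx⟩
    have hyQ : y ∈ pCore p G := by
      have h3 := hy
      rw [SetLike.mem_coe, mem_cj] at h3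
      have h4 := (Qn (p := p) (G := G)).conj_mem _ (Af_le h3) g
      rwa [show g * (g⁻¹ * y * g) * g⁻¹ = y by group] at h4
    have hyQ₁ : y ∈ Q₁ := Subgroup.mem_inf.2 ⟨hyQ, by
      rw [Subgroup.mem_centralizer_iff]; exact hAfI' y hy⟩
    exact mul_mem hxQ₁ hyQ₁
  have h3 : Nat.card Q₁ ≤ Nat.card ((Af p A : Set G) * (cj g (Af p A) : Set G) : Set G) := by
    have h4 : 0 < Nat.card (Af p A ⊓ cj g (Af p A) : Subgroup G) := Nat.card_pos
    refine Nat.le_of_mul_le_mul_right ?_ h4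
    rw [h2]
    refine le_trans ?_ h1
    rw [fv]
    exact Nat.mul_le_mul_left _ (Subgroup.card_le_of_le ((inf_le m hA hAQ hg).trans hZ))
  have heq : (Af p A : Set G) * (cj g (Af p A) : Set G) = (Q₁ : Set G) := by
    refine Set.eq_of_subset_of_ncard_le hsub ?_ (Set.toFinite _)
    rw [← Nat.card_coe_set_eq, ← Nat.card_coe_set_eq]
    exact h3
  have huQ₁ : u ∈ (Q₁ : Set G) := Subgroup.mem_inf.2 ⟨hu, by rw [Subgroup.mem_centralizer_iff]; exact hu'⟩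
  rw [← heq] at huQ₁
  obtain ⟨x, hx, y, hy, rfl⟩ := huQ₁
  obtain ⟨a, ha, v, hv, rfl⟩ := mem_Af.1 hx
  obtain ⟨b, hb, w, hw, rfl⟩ := mem_cj_Af hy
  obtain ⟨l, hl, k, hk, hlV, hkV, e2⟩ := split m hA hAQ hg (mul_mem hv hw)
  refine ⟨a * l, mul_mem ha hl, k * b, mul_mem hk hb, ?_⟩
  have e3 : b * w = w * b := V_Q hb.2 hw
  show a * v * (b * w) = a * l * (k * b)
  calc a * v * (b * w) = a * (v * w) * b := by rw [e3]; group
    _ = a * l * (k * b) := by rw [e2]; group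

omit hg in
/-- a minimal `⟨A, A^g⟩` -/
theorem exists_min : ∃ g, g ∉ M ∧ ∀ k ∈ A ⊔ cj g A, k ∉ M → A ⊔ cj k A = A ⊔ cj g A := by
  obtain ⟨g₀, hg₀⟩ := m.exists_notMem
  obtain ⟨g, hg, hmin⟩ := (Set.toFinite {g : G | g ∉ M}).exists_minimalFor
    (fun g => Nat.card (A ⊔ cj g A : Subgroup G)) {g : G | g ∉ M} ⟨g₀, hg₀⟩
  refine ⟨g, hg, fun k hk hkM => ?_⟩
  have hle : A ⊔ cj k A ≤ A ⊔ cj g A := by
    refine sup_le le_sup_left ?_
    rw [cj_le_iff]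
    intro a ha
    have ha' : a ∈ A ⊔ cj g A := Subgroup.mem_sup_left ha
    exact mul_mem (mul_mem hk ha') (inv_mem hk)
  have h2 := hmin (j := k) hkM (Subgroup.card_le_of_le hle)
  exact Subgroup.eq_of_le_of_card_ge hle h2

theorem sup_Q : (A ⊔ cj g A) ⊔ pCore p G = ⊤ := by
  obtain ⟨h1, -, -⟩ := AQ m hA hAQ
  refine eq_top_of_le m hA hAQ ?_ hg (le_sup_right.trans le_sup_left)
  rw [← h1]
  exact sup_le (le_sup_left.trans le_sup_left) le_sup_right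

end Cfsg.Agent.H215.Count
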