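import Cfsg.Agent.H215.Coh

/-!
# The minimal failure does not exist
-/

set_option autoImplicit false
set_option linter.unusedSectionVars false
set_option linter.unusedVariables false

open Cfsg

namespace Cfsg.Agent.H215.RO

open Cfsg.Agent.H215.Fun Cfsg.Agent.H215.Act Cfsg.Agent.H215.Setup Cfsg.Agent.H215.Setup.Min
open Cfsg.Agent.H263.FF.Basic Cfsg.Agent.H215.RankOne Cfsg.Agent.H215.Off Cfsg.Agent.H215.Baum
open Cfsg.Agent.H215.Count Cfsg.Agent.H215.Coh
open scoped Pointwise commutatorElement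

universe u

variable {G : Type u} [Group G] [Finite G] {p : ℕ} [hp : Fact p.Prime]
variable {S : Sylow p G} {M : Subgroup G} (m : Min p S M)
include m

/-- the module of a bad chief factor -/
theorem exists_F : ∃ (F : Type u) (_ : AddCommGroup F) (_ : Finite F) (_ : DistribMulAction G F) (U : Subgroup G) (θ : G → F),
    (∀ v : F, p • v = 0) ∧ (∀ N : AddSubgroup F, (∀ x : G, ∀ v ∈ N, x • v ∈ N) → N = ⊥ ∨ N = ⊤) ∧
    (∃ (x : G) (v : F), x • v ≠ v) ∧ (∃ B : AddSubgroup F, B ≠ ⊤ ∧ ∀ k ∈ M, ∀ v : F, k • v - v ∈ B) ∧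
    U ≤ pCore p G ∧ EqH (⊤ : Subgroup G) F U θ := by
  classical
  have hPn := Qn (p := p) (G := G)
  obtain ⟨U, W, hUW, hUP, hne, hnle⟩ : ∃ U W : Subgroup G, IsChiefFactor U W ∧ U ≤ pCore p G ∧ ⁅U, M⁆ ⊔ W ≠ U ∧
      ¬ ⁅U, (⊤ : Subgroup G)⁆ ≤ W := by
    by_contra hcon
    push Not at hcon
    exact m.bad (Cfsg.Agent.H39.commutator_top_le S QS m.SM fun U V h1 h2 h3 => hcon U V h1 h2 h3)
  obtain ⟨hcm, hpw⟩ := Cfsg.Agent.H39.chief_elementary hUW (S.isPGroup'.to_le (hUP.trans QS))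
  obtain ⟨hlt, hUn, hWn, hmin⟩ := hUW
  set f : G →* G ⧸ W := QuotientGroup.mk' W with hf
  have hfe : ∀ x, f x = 1 ↔ x ∈ W := fun x => QuotientGroup.eq_one_iff x
  have hInv : Inv f (U.map f) := by
    constructor
    · rintro _ ⟨a, ha, rfl⟩ _ ⟨b, hb, rfl⟩
      have h1 := (hfe _).2 (hcm a ha b hb)
      rw [map_commutatorElement, commutatorElement_eq_one_iff_mul_comm] at h1
      exact h1
    · rintro g _ ⟨a, ha, rfl⟩
      exact ⟨g * a * g⁻¹, hUn.conj_mem a ha g, by rw [map_mul, map_mul, map_inv]⟩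
  let F := Md f (U.map f) hInv
  let θ : G → F := fun x => if h : x ∈ U then Md.mk f hInv (Subgroup.mem_map_of_mem f h) else 0
  have hθ : ∀ x ∈ U, (θ x).val = f x := by
    intro x hx
    have h1 : θ x = Md.mk f hInv (Subgroup.mem_map_of_mem f hx) := dif_pos hx
    rw [h1]; rfl
  have hθ0 : ∀ x ∈ U, (θ x = 0 ↔ x ∈ W) := by
    intro x hx
    rw [Md.ext_zero, hθ x hx, hfe]
  have hsurj : ∀ v : F, ∃ x ∈ U, θ x = v := by
    intro v
    obtain ⟨x, hx, hxv⟩ := v.val_mem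
    exact ⟨x, hx, Md.val_inj (by rw [hθ x hx, hxv])⟩
  have e : EqH (⊤ : Subgroup G) F U θ :=
    { inv := fun h _ u hu => hUn.conj_mem u hu h
      add := fun x hx y hy => Md.val_inj (by rw [Md.val_add, hθ _ hx, hθ _ hy, hθ _ (mul_mem hx hy), map_mul])
      eqv := fun h _ u hu => Md.val_inj (by
        rw [Md.val_smul, hθ _ hu, hθ _ (hUn.conj_mem u hu h), map_mul, map_mul, map_inv])
      ne := by
        obtain ⟨u, hu, hu'⟩ := SetLike.exists_of_lt hlt
        exact ⟨u, hu, fun h => hu' ((hθ0 u hu).1 h)⟩ }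
  refine ⟨F, inferInstance, inferInstance, inferInstance, U, θ, ?_, ?_, ?_, ?_, hUP, e⟩
  · intro v
    obtain ⟨x, hx, rfl⟩ := hsurj v
    apply Md.ext_zero.2
    rw [Md.val_nsmul, hθ x hx, ← map_pow, hfe]
    exact hpw x hx
  · intro N hN
    let N' : Subgroup G :=
      { carrier := {x | x ∈ U ∧ θ x ∈ N}
        one_mem' := ⟨one_mem _, by rw [e.one]; exact N.zero_mem⟩
        mul_mem' := by
          rintro a b ⟨ha, ha'⟩ ⟨hb, hb'⟩
          exact ⟨mul_mem ha hb, by rw [e.add a ha b hb]; exact N.add_mem ha' hb'⟩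
        inv_mem' := by
          rintro a ⟨ha, ha'⟩
          exact ⟨inv_mem ha, by rw [e.neg ha]; exact N.neg_mem ha'⟩ }
    have hN'n : N'.Normal := ⟨fun x hx g => ⟨hUn.conj_mem x hx.1 g, by
      rw [e.eqv g trivial x hx.1]; exact hN g _ hx.2⟩⟩
    have hWN' : W ≤ N' := fun x hx => ⟨hlt.le hx, by rw [(hθ0 x (hlt.le hx)).2 hx]; exact N.zero_mem⟩
    rcases hmin N' hN'n hWN' (fun x hx => hx.1) with h | h
    · left
      rw [eq_bot_iff]
      intro v hv
      obtain ⟨x, hx, rfl⟩ := hsurj v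
      have h1 : x ∈ N' := ⟨hx, hv⟩
      rw [h] at h1
      exact (AddSubgroup.mem_bot).2 ((hθ0 x hx).2 h1)
    · right
      rw [eq_top_iff]
      intro v _
      obtain ⟨x, hx, rfl⟩ := hsurj v
      have h1 : x ∈ N' := by rw [h]; exact hx
      exact h1.2
  · obtain ⟨x, hx, g, hxg⟩ : ∃ x ∈ U, ∃ g : G, ⁅x, g⁆ ∉ W := by
      by_contra hcon
      push Not at hcon
      exact hnle (Subgroup.commutator_le.2 fun x hx g _ => hcon x hx g)
    refine ⟨g, θ x, fun h => hxg ?_⟩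
    rw [Md.smul_eq_iff, hθ x hx] at h
    rw [← hfe, map_commutatorElement, commutatorElement_eq_one_iff_mul_comm]
    exact h.symm
  · have hBU : ⁅U, M⁆ ⊔ W ≤ U := sup_le (Subgroup.commutator_le_left U M) hlt.le
    let B : AddSubgroup F :=
      { carrier := {v | ∃ x ∈ ⁅U, M⁆ ⊔ W, θ x = v}
        zero_mem' := ⟨1, one_mem _, e.one⟩
        add_mem' := by
          rintro _ _ ⟨x, hx, rfl⟩ ⟨y, hy, rfl⟩
          exact ⟨x * y, mul_mem hx hy, e.add x (hBU hx) y (hBU hy)⟩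
        neg_mem' := by
          rintro _ ⟨x, hx, rfl⟩
          exact ⟨x⁻¹, inv_mem hx, e.neg (hBU hx)⟩ }
    refine ⟨B, ?_, ?_⟩
    · intro hB
      apply hne
      refine le_antisymm hBU fun x hx => ?_
      have h1 : θ x ∈ B := by rw [hB]; trivial
      obtain ⟨y, hy, hyx⟩ := h1
      have h2 : θ (y⁻¹ * x) = 0 := by
        rw [e.add _ (inv_mem (hBU hy)) _ hx, e.neg (hBU hy), hyx, neg_add_cancel]
      rw [hθ0 _ (mul_mem (inv_mem (hBU hy)) hx)] at h2
      have h3 := mul_mem hy (Subgroup.mem_sup_right h2 : y⁻¹ * x ∈ ⁅U, M⁆ ⊔ W)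
      rwa [mul_inv_cancel_left] at h3
    · intro k hk v
      obtain ⟨x, hx, rfl⟩ := hsurj v
      -- `k x k⁻¹ x⁻¹`
      have h1 : ⁅x, k⁆ ∈ ⁅U, M⁆ := Subgroup.commutator_mem_commutator hx hk
      refine ⟨⁅x, k⁆⁻¹, Subgroup.mem_sup_left (inv_mem h1), ?_⟩
      have h2 : ⁅x, k⁆⁻¹ = (k * x * k⁻¹) * x⁻¹ := by rw [commutatorElement_def]; group
      rw [h2, e.add _ (hUn.conj_mem x hx k) _ (inv_mem hx), e.neg hx, e.eqv k trivial x hx, sub_eq_add_neg]

/-- **there is no minimal failure** -/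
theorem false_of_min : False := by
  classical
  have hPn := Qn (p := p) (G := G)
  obtain ⟨F, _, _, _, U₀, θ₀, pF, irr, nt, bad, hU₀, e₀⟩ := exists_F m
  obtain ⟨hQF, hSF, hcF⟩ := bad_G m.p2 S.isPGroup' QS m.SQ m.SM m.Mne m.max
    (fun g₁ hg₁ x hx => c4 m hg₁ hx) (fun g₁ hg₁ s hs h => c5 m hg₁ hs h) pF irr nt bad
  obtain ⟨A, hA, hAQ⟩ := exists_A m
  obtain ⟨g, hg, hgmin⟩ := exists_min m hA hAQ
  set Q := pCore p G with hQ
  set I := A ⊓ cj g A with hI
  set H := Subgroup.centralizer (I : Set G) with hH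
  set G₀ := A ⊔ cj g A with hG₀
  have hG₀H : G₀ ≤ H := by
    refine sup_le ?_ ?_
    · intro a ha
      rw [hH, Subgroup.mem_centralizer_iff]
      intro i hi
      exact hA.2.1 i (Subgroup.mem_inf.1 hi).1 a ha
    · intro b hb
      rw [hH, Subgroup.mem_centralizer_iff]
      intro i hi
      have h1 := hA.2.1 _ (mem_cj.1 (Subgroup.mem_inf.1 hi).2) _ (mem_cj.1 hb)
      calc i * b = g * ((g⁻¹ * i * g) * (g⁻¹ * b * g)) * g⁻¹ := by group
        _ = g * ((g⁻¹ * b * g) * (g⁻¹ * i * g)) * g⁻¹ := by rw [h1]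
        _ = _ := by group
  have hG₀Q : G₀ ⊔ Q = ⊤ := sup_Q m hA hAQ hg
  have hIQ : I ≤ Q := I_le m hA hAQ hg
  have hIH : I ≤ H := (inf_le_left.trans le_sup_left).trans hG₀H
  have hHI : ∀ h ∈ H, ∀ i ∈ I, h * i = i * h := fun h hh i hi => (Subgroup.mem_centralizer_iff.1 hh i hi).symm
  -- irreducibility under supplements of `Q`
  have irrK : ∀ K : Subgroup G, K ⊔ Q = ⊤ → ∀ N : AddSubgroup F, (∀ x ∈ K, ∀ v ∈ N, x • v ∈ N) → N = ⊥ ∨ N = ⊤ := by
    intro K hK N hN
    refine irr N fun x v hv => ?_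
    have h1 : x ∈ K ⊔ Q := by rw [hK]; trivial
    obtain ⟨k, hk, q, hq, rfl⟩ := Subgroup.mem_sup_of_normal_right.1 h1
    rw [mul_smul, hQF q hq]
    exact hN k hk v hv
  have irrH := irrK H (top_le_iff.1 (hG₀Q ▸ sup_le_sup_right hG₀H Q))
  have irrG₀ := irrK G₀ hG₀Q
  have hF0 : (⊤ : AddSubgroup F) ≠ ⊥ := by
    intro h
    obtain ⟨x, v, hv⟩ := nt
    have h1 : v ∈ (⊥ : AddSubgroup F) := by rw [← h]; trivial
    rw [AddSubgroup.mem_bot] at h1
    exact hv (by rw [h1, smul_zero])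
  -- a minimal source
  have hex : ∃ U : Subgroup G, U ≤ Q ∧ ∃ θ : G → F, EqH H F U θ :=
    ⟨U₀, hU₀, θ₀, ⟨fun h _ => e₀.inv h trivial, e₀.add, fun h _ => e₀.eqv h trivial, e₀.ne⟩⟩
  obtain ⟨U, ⟨hUQ, θ, e⟩, hUmin⟩ := (Set.toFinite {U : Subgroup G | U ≤ Q ∧ ∃ θ : G → F, EqH H F U θ}).exists_minimalFor
    (fun U : Subgroup G => Nat.card U) {U : Subgroup G | U ≤ Q ∧ ∃ θ : G → F, EqH H F U θ} hex
  have hUI : ∀ u ∈ U, ∀ i ∈ I, u * i = i * u := by
    refine comm_of_min (S.isPGroup'.to_le QS) hIQ hIH hHI e hUQ ?_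
    intro U' θ' hU' e'
    have h1 := hUmin (j := U') ⟨hU'.trans hUQ, θ', e'⟩ (Subgroup.card_le_of_le hU')
    exact Subgroup.eq_of_le_of_card_ge hU' h1
  -- the cohomological argument
  have key : ∀ u ∈ U, θ u ∈ fx F A ⊔ fx F (cj g A) := by
    intro u hu
    obtain ⟨a₀, ha₀, b₀, hb₀, hab⟩ := mem_Q1 m hA hAQ hg (hUQ hu) fun i hi => (hUI u hu i hi).symm
    have ha₀A := (Subgroup.mem_inf.1 ha₀).1
    have hb₀A := (Subgroup.mem_inf.1 hb₀).1
    let c : G → G := fun k => k * a₀ * k⁻¹ * a₀⁻¹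
    have hcmul : ∀ k k', c (k * k') = (k * c k' * k⁻¹) * c k := fun k k' => by
      show k * k' * a₀ * (k * k')⁻¹ * a₀⁻¹ = (k * (k' * a₀ * k'⁻¹ * a₀⁻¹) * k⁻¹) * (k * a₀ * k⁻¹ * a₀⁻¹)
      group
    let R : Subgroup G :=
      { carrier := {k | k ∈ H ∧ c k ∈ U}
        one_mem' := ⟨one_mem _, by
          show 1 * a₀ * 1⁻¹ * a₀⁻¹ ∈ U
          rw [show (1 : G) * a₀ * 1⁻¹ * a₀⁻¹ = 1 by group]; exact one_mem _⟩
        mul_mem' := by
          rintro k k' ⟨hk, hk'⟩ ⟨hl, hl'⟩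
          exact ⟨mul_mem hk hl, by
            show c (k * k') ∈ U
            rw [hcmul]
            exact mul_mem (e.inv k hk _ hl') hk'⟩
        inv_mem' := by
          rintro k ⟨hk, hk'⟩
          refine ⟨inv_mem hk, ?_⟩
          have h1 := e.inv k⁻¹ (inv_mem hk) _ (inv_mem hk')
          have h2 : k⁻¹ * (c k)⁻¹ * k⁻¹⁻¹ = c k⁻¹ := by
            show k⁻¹ * (k * a₀ * k⁻¹ * a₀⁻¹)⁻¹ * k⁻¹⁻¹ = k⁻¹ * a₀ * k⁻¹⁻¹ * a₀⁻¹
            group
          rw [h2] at h1
          exact h1 }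
    have hcA : ∀ k ∈ A, c k = 1 := by
      intro k hk
      show k * a₀ * k⁻¹ * a₀⁻¹ = 1
      rw [hA.2.1 k hk a₀ ha₀A]; group
    have hcB : ∀ k ∈ cj g A, c k = (k * u * k⁻¹) * u⁻¹ := by
      intro k hk
      have h1 := hA.2.1 _ (mem_cj.1 hk) _ (mem_cj.1 hb₀A)
      have h2 : k * b₀ = b₀ * k := by
        calc k * b₀ = g * ((g⁻¹ * k * g) * (g⁻¹ * b₀ * g)) * g⁻¹ := by group
          _ = g * ((g⁻¹ * b₀ * g) * (g⁻¹ * k * g)) * g⁻¹ := by rw [h1]
          _ = _ := by group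
      show k * a₀ * k⁻¹ * a₀⁻¹ = (k * u * k⁻¹) * u⁻¹
      rw [hab]
      have h3 : k * (a₀ * b₀) * k⁻¹ = k * a₀ * k⁻¹ * b₀ := by
        calc k * (a₀ * b₀) * k⁻¹ = k * a₀ * k⁻¹ * (k * b₀) * k⁻¹ := by group
          _ = k * a₀ * k⁻¹ * (b₀ * k) * k⁻¹ := by rw [h2]
          _ = _ := by group
      rw [h3]; group
    have hG₀R : G₀ ≤ R := by
      refine sup_le ?_ ?_
      · intro k hk
        exact ⟨hG₀H (Subgroup.mem_sup_left hk), by
          show c k ∈ U
          rw [hcA k hk]; exact one_mem _⟩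
      · intro k hk
        have hkH : k ∈ H := hG₀H (Subgroup.mem_sup_right hk)
        exact ⟨hkH, by
          show c k ∈ U
          rw [hcB k hk]; exact mul_mem (e.inv k hkH u hu) (inv_mem hu)⟩
    let δ : G → F := fun k => θ (c k)
    have hδ : ∀ k ∈ G₀, ∀ k' ∈ G₀, δ (k * k') = k • δ k' + δ k := by
      intro k hk k' hk'
      show θ (c (k * k')) = k • θ (c k') + θ (c k)
      rw [hcmul, e.add _ (e.inv k (hG₀H hk) _ (hG₀R hk').2) _ (hG₀R hk).2, e.eqv k (hG₀H hk) _ (hG₀R hk').2]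
    have hδA : ∀ k ∈ A, δ k = 0 := by
      intro k hk
      show θ (c k) = 0
      rw [hcA k hk, e.one]
    have hδB : ∀ k ∈ cj g A, δ k = k • θ u - θ u := by
      intro k hk
      have hkH : k ∈ H := hG₀H (Subgroup.mem_sup_right hk)
      show θ (c k) = k • θ u - θ u
      rw [hcB k hk, e.add _ (e.inv k hkH u hu) _ (inv_mem hu), e.neg hu, e.eqv k hkH u hu, sub_eq_add_neg]
    have hδ1 : δ 1 = 0 := hδA 1 (one_mem _)
    have hδinv : ∀ k ∈ G₀, k • δ k⁻¹ + δ k = 0 := by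
      intro k hk
      rw [← hδ k hk k⁻¹ (inv_mem hk), mul_inv_cancel, hδ1]
    -- the stabilizer
    let St : Subgroup G :=
      { carrier := {k | k ∈ G₀ ∧ δ k = 0}
        one_mem' := ⟨one_mem _, hδ1⟩
        mul_mem' := by
          rintro k k' ⟨hk, hk'⟩ ⟨hl, hl'⟩
          exact ⟨mul_mem hk hl, by
            show δ (k * k') = 0
            rw [hδ k hk k' hl, hl', hk', smul_zero, add_zero]⟩
        inv_mem' := by
          rintro k ⟨hk, hk'⟩
          refine ⟨inv_mem hk, ?_⟩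
          have h1 := hδinv k hk
          rw [hk', add_zero, smul_eq_zero_iff_eq] at h1
          exact h1 }
    -- `δ` on `Q ∩ G₀`
    let N : AddSubgroup F :=
      { carrier := {v | ∃ t ∈ Q ⊓ G₀, δ t = v}
        zero_mem' := ⟨1, one_mem _, hδ1⟩
        add_mem' := by
          rintro _ _ ⟨s, hs, rfl⟩ ⟨t, ht, rfl⟩
          refine ⟨t * s, mul_mem ht hs, ?_⟩
          rw [hδ t (Subgroup.mem_inf.1 ht).2 s (Subgroup.mem_inf.1 hs).2, hQF t (Subgroup.mem_inf.1 ht).1]
        neg_mem' := by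
          rintro _ ⟨t, ht, rfl⟩
          refine ⟨t⁻¹, inv_mem ht, ?_⟩
          have h1 := hδinv t (Subgroup.mem_inf.1 ht).2
          rw [hQF t (Subgroup.mem_inf.1 ht).1] at h1
          exact eq_neg_of_add_eq_zero_left h1 }
    have hN : N = ⊥ := by
      refine (irrG₀ N ?_).resolve_right ?_
      · rintro h hh _ ⟨t, ht, rfl⟩
        have ht1 := (Subgroup.mem_inf.1 ht).1
        have ht2 := (Subgroup.mem_inf.1 ht).2
        refine ⟨h * t * h⁻¹, Subgroup.mem_inf.2 ⟨hPn.conj_mem t ht1 h, mul_mem (mul_mem hh ht2) (inv_mem hh)⟩, ?_⟩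
        rw [mul_assoc, hδ h hh _ (mul_mem ht2 (inv_mem hh)), hδ t ht2 _ (inv_mem hh), hQF t ht1, smul_add,
          add_right_comm, hδinv h hh, zero_add]
      · intro hNt
        obtain ⟨k, hk, hkM⟩ : ∃ k ∈ G₀, k ∉ M := by
          by_contra hcon
          push Not at hcon
          exact m.Mne (top_le_iff.1 (hG₀Q ▸ sup_le hcon m.QM))
        have h1 : -(k⁻¹ • δ k) ∈ N := by rw [hNt]; trivial
        obtain ⟨t, ht, hte⟩ := h1
        have ht1 := (Subgroup.mem_inf.1 ht).1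
        have ht2 := (Subgroup.mem_inf.1 ht).2
        have hkt : k * t ∈ G₀ := mul_mem hk ht2
        have hδkt : δ (k * t) = 0 := by
          rw [hδ k hk t ht2, hte, smul_neg, smul_inv_smul, neg_add_cancel]
        have hktM : k * t ∉ M := by
          intro h
          have h2 := mul_mem h (inv_mem (m.QM ht1))
          rw [mul_inv_cancel_right] at h2
          exact hkM h2
        have h2 := hgmin (k * t) hkt hktM
        have hktS : k * t ∈ St := ⟨hkt, hδkt⟩
        have hAS : A ≤ St := fun a ha => ⟨Subgroup.mem_sup_left ha, hδA a ha⟩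
        have h3 : G₀ ≤ St := by
          rw [← h2]
          refine sup_le hAS ?_
          rw [cj_le_iff]
          intro a ha
          exact mul_mem (mul_mem hktS (hAS ha)) (inv_mem hktS)
        apply hF0
        rw [← hNt, eq_bot_iff]
        rintro _ ⟨t, ht, rfl⟩
        exact AddSubgroup.mem_bot.2 (h3 (Subgroup.mem_inf.1 ht).2).2
    have hδQ : ∀ t ∈ Q, t ∈ G₀ → δ t = 0 := by
      intro t ht ht'
      have h1 : δ t ∈ N := ⟨t, Subgroup.mem_inf.2 ⟨ht, ht'⟩, rfl⟩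
      rw [hN] at h1
      exact AddSubgroup.mem_bot.1 h1
    have hSAQ : A ⊔ Q = (S : Subgroup G) := (AQ m hA hAQ).1
    have hδS : ∀ s ∈ (S : Subgroup G), s ∈ G₀ → δ s = 0 := by
      intro s hs hs'
      rw [← hSAQ] at hs
      obtain ⟨a, ha, q, hq, rfl⟩ := Subgroup.mem_sup_of_normal_right.1 hs
      have haG : a ∈ G₀ := Subgroup.mem_sup_left ha
      have hqG : q ∈ G₀ := by
        have h1 := mul_mem (inv_mem haG) hs'
        rwa [inv_mul_cancel_left] at h1
      rw [hδ a haG q hqG, hδQ q hq hqG, hδA a ha, smul_zero, add_zero]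
    -- the index
    have hindex : ¬ p ∣ ((S : Subgroup G).subgroupOf G₀).index := by
      have h1 : ((S : Subgroup G).subgroupOf G₀).index = (S : Subgroup G).index := by
        have e1 := card_sup_normal G₀ Q
        have e2 := card_sup_normal ((S : Subgroup G) ⊓ G₀) Q
        have e3 : ((S : Subgroup G) ⊓ G₀) ⊔ Q = (S : Subgroup G) := by
          apply le_antisymm (sup_le inf_le_left QS)
          nth_rewrite 1 [← hSAQ]
          exact sup_le_sup_right (le_inf (le_sup_left.trans hSAQ.le) le_sup_left) Q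
        have e4 : ((S : Subgroup G) ⊓ G₀) ⊓ Q = G₀ ⊓ Q := by
          apply le_antisymm (inf_le_inf_right _ inf_le_right)
          exact le_inf (le_inf (inf_le_right.trans QS) inf_le_left) inf_le_right
        rw [hG₀Q] at e1
        rw [e3, e4] at e2
        have e5 := ((S : Subgroup G).subgroupOf G₀).index_mul_card
        have e6 := (S : Subgroup G).index_mul_card
        have e7 : Nat.card ((S : Subgroup G).subgroupOf G₀) = Nat.card ((S : Subgroup G) ⊓ G₀ : Subgroup G) := by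
          rw [← Subgroup.subgroupOf_map_subtype]
          exact (Subgroup.card_map_of_injective G₀.subtype_injective).symm
        rw [e7] at e5
        have hpos1 : 0 < Nat.card ((S : Subgroup G) ⊓ G₀ : Subgroup G) := Nat.card_pos
        have hpos2 : 0 < Nat.card (S : Subgroup G) := Nat.card_pos
        have hpos3 : 0 < Nat.card Q := Nat.card_pos
        have hpos4 : 0 < Nat.card (G₀ ⊓ Q : Subgroup G) := Nat.card_pos
        have e8 : Nat.card (⊤ : Subgroup G) = Nat.card G := Nat.card_congr Subgroup.topEquiv.toEquiv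
        rw [e8] at e1
        -- |G|·x = |G₀|·q, |S|·x = |S∩G₀|·q
        apply Nat.eq_of_mul_eq_mul_right (Nat.mul_pos hpos1 hpos3)
        calc ((S : Subgroup G).subgroupOf G₀).index * (Nat.card ((S : Subgroup G) ⊓ G₀ : Subgroup G) * Nat.card Q) =
            (((S : Subgroup G).subgroupOf G₀).index * Nat.card ((S : Subgroup G) ⊓ G₀ : Subgroup G)) * Nat.card Q := by ring
          _ = Nat.card G₀ * Nat.card Q := by rw [e5]
          _ = Nat.card G * Nat.card (G₀ ⊓ Q : Subgroup G) := e1.symm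
          _ = (S : Subgroup G).index * (Nat.card (S : Subgroup G) * Nat.card (G₀ ⊓ Q : Subgroup G)) := by rw [← e6]; ring
          _ = (S : Subgroup G).index * (Nat.card ((S : Subgroup G) ⊓ G₀ : Subgroup G) * Nat.card Q) := by rw [e2]
      rw [h1]
      exact S.not_dvd_index
    obtain ⟨f, hf⟩ := cocycle_avg (X := G₀) hp.out pF (fun x => δ x)
      (fun x y => hδ x x.2 y y.2) ((S : Subgroup G).subgroupOf G₀)
      (fun t ht => hδS t (Subgroup.mem_subgroupOf.1 ht) t.2) hindex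
    have hfA : f ∈ fx F A := by
      intro a ha
      have h1 := hf ⟨a, Subgroup.mem_sup_left ha⟩
      have h2 : a • f = f - δ a := h1
      rw [h2, hδA a ha, sub_zero]
    have hfB : f + θ u ∈ fx F (cj g A) := by
      intro b hb
      have h1 := hf ⟨b, Subgroup.mem_sup_right hb⟩
      have h2 : b • f = f - δ b := h1
      rw [smul_add, h2, hδB b hb]
      abel
    have h1 : θ u = -f + (f + θ u) := by abel
    rw [h1]
    exact add_mem (AddSubgroup.mem_sup_left (neg_mem hfA)) (AddSubgroup.mem_sup_right hfB)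
  have htop : fx F A ⊔ fx F (cj g A) = ⊤ := by
    rw [eq_top_iff]
    intro v _
    obtain ⟨u, hu, rfl⟩ := e.surj irrH v
    exact key u hu
  have hfS : fx F A = fx F (S : Subgroup G) := by
    rw [← (AQ m hA hAQ).1, fx_sup]
    refine (inf_eq_left.2 ?_).symm
    intro v _ q hq
    exact hQF q hq v
  have h1 := card_sup_inf (fx F A) (fx F (cj g A))
  rw [htop, card_top, card_fx_cj, hfS] at h1
  have h2 : 0 < Nat.card (fx F (S : Subgroup G) ⊓ fx F (cj g A) : AddSubgroup F) := card_pos _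
  have h3 : Nat.card F ≤ Nat.card (fx F (S : Subgroup G)) * Nat.card (fx F (S : Subgroup G)) := by
    rw [← h1]
    exact Nat.le_mul_of_pos_right _ h2
  have h4 : Nat.card (fx F (S : Subgroup G)) * Nat.card (fx F (S : Subgroup G)) ≤ p ^ 2 := by
    rw [pow_two]; exact Nat.mul_le_mul hSF hSF
  omega

end Cfsg.Agent.H215.RO
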